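import Cfsg.Agent.H35.OnT.ONV3.RChk0

set_option autoImplicit false
set_option linter.all false

namespace Cfsg.Agent.H35

open Cfsg.Spor

theorem onv3_rall : ∀ p, p < 32 → onv3_rf p = true := by
  apply allR_blocks onv3_rf 32 5 1 _ (by decide)
  intro k hk
  interval_cases k
  · exact onv3_rchk_0

theorem onv3_circ_ok : circChk (fullW onv3_rws onv3_prels) onv3_circT 0 onv3_ccert = true := by decide +kernel
theorem onv3_hc_ok : allR (fun c => hcChk onv3_rsw onv3_hc1T onv3_hc2T c) 0 0 0 = true := by decide +kernel
theorem onv3_h0 : RData.aord (onv3_rd.ent 0 1) = 0 := by decide +kernel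

end Cfsg.Agent.H35
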