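import Cfsg.Agent.H35.OnT.ONV3.RTab0

set_option autoImplicit false
set_option linter.all false

namespace Cfsg.Agent.H35

open Cfsg.Spor

noncomputable def onv3_rrowT : ℕ → ℕ := onv3_rrowT_c0

noncomputable def onv3_circT_c0 : ℕ → List ON.Gen := (nd 8 (nd 4 (nd 2 (nd 1 (lf [.g]) (lf [.b])) (nd 3 (lf [.e]) (lf [.a, .c, .a, .c]))) (nd 6 (nd 5 (lf [.a, .a]) (lf [.a, .d, .a, .d])) (nd 7 (lf [.a, .f, .a, .f]) (lf [.c, .f, .c, .f])))) (nd 12 (nd 10 (nd 9 (lf [.c, .c]) (lf [.d, .f, .d, .f])) (nd 11 (lf [.d, .d]) (lf [.c, .d, .c, .d, .c, .a, .f, .d, .c, .d]))) (nd 14 (nd 13 (lf [.f, .c, .f, .c]) (lf [.f, .f])) (nd 15 (lf [.d, .c, .d, .c, .d, .c, .d, .c, .d, .c, .d, .c, .d, .c, .d, .c]) (lf [.f, .d, .f, .d])))))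
noncomputable def onv3_circT : ℕ → List ON.Gen := onv3_circT_c0
def onv3_ccert : List (ℕ × ℕ × Bool) := [(17, 0, false), (18, 0, false), (19, 0, false), (1, 0, false), (0, 0, false), (2, 0, false), (3, 0, false), (7, 0, false), (5, 0, false), (11, 0, false), (10, 0, false), (16, 5, false), (7, 1, false), (15, 0, false), (6, 1, false), (11, 1, false)]
def onv3_hc1T : ℕ → List ON.Gen := lf []
def onv3_hc2T : ℕ → List ON.Gen := lf []

noncomputable def onv3_rd : RData ON.Gen := ⟨wrapRow 32 onv3_rrowT, 32, 32, on7_gi, on7_gof, on7_gens, circTab 16 onv3_circT, circTab 0 onv3_hc1T, circTab 0 onv3_hc2T, 1⟩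
noncomputable def onv3_rf (p : ℕ) : Bool := onv3_rd.chk p
def onv3_rsw : List (List ON.Gen) := []

end Cfsg.Agent.H35
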